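import Cfsg.Agent.FrobJordan.Small

/-!
Blichfeldt's sixty-degree lemma for simple groups: a nonidentity element of a finite simple group
cannot act, in a faithful irreducible complex representation, with all its eigenvalues at distance
less than one from one of them.
-/

namespace CfsgLib.Blichfeldt

open CfsgLib.FrobJordan
open scoped InnerProductSpace ComplexConjugate

variable {G : Type*} [Group G] [Fintype G] {n : ℕ} (ρ : Representation ℂ G (Fin n → ℂ))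

theorem apply_inv_apply (g : G) (v : Fin n → ℂ) : ρ g⁻¹ (ρ g v) = v := by
  rw [← Module.End.mul_apply, ← map_mul, inv_mul_cancel, map_one, Module.End.one_apply]

/-- `h` is within `r` of the scalar `conj μ` on the subspace `W`. -/
def BoundOn (W : Submodule ℂ (Fin n → ℂ)) (h : G) (μ : ℂ) (r : ℝ) : Prop :=
  ∀ w ∈ W, ‖μ • Φ ρ (ρ h w) - Φ ρ w‖ ≤ r * ‖Φ ρ w‖

variable {ρ}

theorem boundOn_step {g : G} {ε : ℂ} {s : ℝ} (hs : 0 ≤ s) (hg : Bound ρ g ε s) {h : G} {μ : ℂ} {r : ℝ}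
    (hμ : ‖μ‖ = 1) (hb : BoundOn ρ (Module.End.eigenspace (ρ g) ε) h μ r) :
    BoundOn ρ (Module.End.eigenspace (ρ g) ε) (g⁻¹ * h⁻¹ * g * h) 1 (s * r) := by
  intro w hw
  have hgw := Module.End.mem_eigenspace_iff.mp hw
  have e : h * g * (g⁻¹ * h⁻¹ * g * h) = g * h := by group
  have e1 : ρ h (ρ g (ρ (g⁻¹ * h⁻¹ * g * h) w)) = ρ g (ρ h w) := by
    rw [← Module.End.mul_apply, ← Module.End.mul_apply, ← Module.End.mul_apply, ← map_mul, ← map_mul, ← map_mul]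
    congr 2
  set c := g⁻¹ * h⁻¹ * g * h with hc
  have e2 : ρ h (ρ g (ρ c w - w)) = ρ g (ρ h w) - ε • ρ h w := by
    rw [map_sub, map_sub, e1, hgw, map_smul]
  have e3 : ‖Φ ρ (ρ c w) - Φ ρ w‖ = ‖Φ ρ (ρ g (ρ h w) - ε • ρ h w)‖ := by
    rw [← e2, norm_Φ, norm_Φ, map_sub]
  set x := μ • ρ h w - w with hx
  have e4 : ρ g x - ε • x = μ • (ρ g (ρ h w) - ε • ρ h w) := by
    rw [hx, map_sub, map_smul, hgw, smul_sub, smul_sub, smul_comm ε μ]
    abel
  rw [one_smul, e3]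
  calc ‖Φ ρ (ρ g (ρ h w) - ε • ρ h w)‖ = ‖Φ ρ (ρ g x - ε • x)‖ := by
        rw [e4, map_smul, norm_smul, hμ, one_mul]
    _ = ‖Φ ρ (ρ g x) - ε • Φ ρ x‖ := by rw [map_sub, map_smul]
    _ ≤ s * ‖Φ ρ x‖ := hg x
    _ ≤ s * (r * ‖Φ ρ w‖) := by
        gcongr
        rw [hx, map_sub, map_smul]
        exact hb w hw
    _ = s * r * ‖Φ ρ w‖ := by ring

theorem exists_preserved_step {g : G} {ε : ℂ} {s : ℝ} (hs : 0 ≤ s) (hs1 : s < 1) (hg : Bound ρ g ε s)
    {h : G} {μ : ℂ} {r : ℝ} (hμ : ‖μ‖ = 1) (hr : r ^ 2 < 2)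
    (hb : BoundOn ρ (Module.End.eigenspace (ρ g) ε) h μ r) (hr0 : 0 ≤ r)
    (hh : ¬ ∀ w ∈ Module.End.eigenspace (ρ g) ε, ρ h w ∈ Module.End.eigenspace (ρ g) ε) :
    ∃ (h' : G) (μ' : ℂ) (r' : ℝ), ‖μ'‖ = 1 ∧ r' ^ 2 < 2 ∧
      BoundOn ρ (Module.End.eigenspace (ρ g) ε) h' μ' r' ∧
      (¬ ∀ w ∈ Module.End.eigenspace (ρ g) ε, ρ h' w ∈ Module.End.eigenspace (ρ g) ε) ∧
      ∀ w ∈ Module.End.eigenspace (ρ g) ε,
        ρ (g⁻¹ * h'⁻¹ * g * h') w ∈ Module.End.eigenspace (ρ g) ε := by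
  classical
  set W := Module.End.eigenspace (ρ g) ε with hW
  by_contra hno
  have key : ∀ (h' : G) (μ' : ℂ) (r' : ℝ), ‖μ'‖ = 1 → r' ^ 2 < 2 → BoundOn ρ W h' μ' r' →
      (¬ ∀ w ∈ W, ρ h' w ∈ W) → ¬ ∀ w ∈ W, ρ (g⁻¹ * h'⁻¹ * g * h') w ∈ W := by
    intro h' μ' r' h1 h2 h3 h4 h5
    exact hno ⟨h', μ', r', h1, h2, h3, h4, h5⟩
  obtain ⟨f, hf0, hfs⟩ : ∃ f : ℕ → G, f 0 = h ∧ ∀ k, f (k + 1) = g⁻¹ * (f k)⁻¹ * g * f k :=
    ⟨fun k => Nat.rec h (fun _ x => g⁻¹ * x⁻¹ * g * x) k, rfl, fun _ => rfl⟩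
  have hpow : ∀ k : ℕ, (s ^ k * r) ^ 2 < 2 := fun k =>
    lt_of_le_of_lt (pow_le_pow_left₀ (mul_nonneg (pow_nonneg hs k) hr0)
      (mul_le_of_le_one_left hr0 (pow_le_one₀ hs hs1.le)) 2) hr
  have hall : ∀ k, (∃ m : ℂ, ‖m‖ = 1 ∧ BoundOn ρ W (f k) m (s ^ k * r) ∧ (1 ≤ k → m = 1)) ∧
      ¬ ∀ w ∈ W, ρ (f k) w ∈ W := by
    intro k
    induction k with
    | zero => exact ⟨⟨μ, hμ, by simpa [hf0] using hb, by omega⟩, by rwa [hf0]⟩
    | succ k ih =>
      obtain ⟨⟨m, hm, hmb, -⟩, hT⟩ := ih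
      refine ⟨⟨1, norm_one, ?_, fun _ => rfl⟩, ?_⟩
      · rw [hfs, show s ^ (k + 1) * r = s * (s ^ k * r) by ring]
        exact boundOn_step hs hg hm hmb
      · rw [hfs]
        exact key _ m _ hm (hpow k) hmb hT
  have hev : ∀ x : {x : G // ¬ ∀ w ∈ W, ρ x w ∈ W}, ∀ᶠ k in Filter.atTop, f k ≠ x := by
    intro x
    have hx2 := x.2
    push Not at hx2
    obtain ⟨w, hw, hw'⟩ := hx2
    have hpos : 0 < ‖Φ ρ (ρ x w) - Φ ρ w‖ := by
      rw [norm_pos_iff, sub_ne_zero]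
      intro h
      exact hw' (by rw [Φ_injective ρ h]; exact hw)
    have hlim : Filter.Tendsto (fun k => s ^ k * r * ‖Φ ρ w‖) Filter.atTop (nhds 0) := by
      simpa using ((tendsto_pow_atTop_nhds_zero_of_lt_one hs hs1).mul_const r).mul_const ‖Φ ρ w‖
    filter_upwards [hlim.eventually (gt_mem_nhds hpos), Filter.eventually_ge_atTop 1] with k hk hk1 hkx
    obtain ⟨⟨m, -, hmb, hm1⟩, -⟩ := hall k
    have := hmb w hw
    rw [hm1 hk1, one_smul, hkx] at this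
    exact absurd this (not_le.mpr hk)
  obtain ⟨k, hk⟩ := (Filter.eventually_all.mpr hev).exists
  exact hk ⟨f k, (hall k).2⟩ rfl

/-- An element all of whose eigenvalues are within distance one of one of them preserves,
together with its conjugates, the corresponding eigenspace. -/
theorem conj_preserves {g : G} {ε : ℂ} (hε : ‖ε‖ = 1) {s : ℝ} (hs : 0 ≤ s) (hs1 : s < 1)
    (hg : Bound ρ g ε s) (x : G) :
    ∀ w ∈ Module.End.eigenspace (ρ g) ε, ρ (x * g * x⁻¹) w ∈ Module.End.eigenspace (ρ g) ε := by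
  classical
  set W := Module.End.eigenspace (ρ g) ε with hW
  by_contra hx
  have hε0 : ε ≠ 0 := fun h => by simp [h] at hε
  have hb : BoundOn ρ W (x * g * x⁻¹) ε⁻¹ s := by
    intro w _
    have h1 := bound_conj ρ hg x w
    have h2 : ε⁻¹ • Φ ρ (ρ (x * g * x⁻¹) w) - Φ ρ w =
        ε⁻¹ • (Φ ρ (ρ (x * g * x⁻¹) w) - ε • Φ ρ w) := by
      rw [smul_sub, inv_smul_smul₀ hε0]
    rw [h2, norm_smul, norm_inv, hε, inv_one, one_mul]
    exact h1
  obtain ⟨h, μ, r, hμ, hr, hbh, hhT, hc⟩ :=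
    exists_preserved_step hs hs1 hg (by rw [norm_inv, hε, inv_one]) (by nlinarith) hb hs hx
  push Not at hhT
  obtain ⟨w, hw, hw'⟩ := hhT
  set w₁ := ρ (g⁻¹ * h⁻¹ * g * h) w with hw1
  have hw1m : w₁ ∈ W := hc w hw
  have hgy : ρ g (ρ h w) = ρ h (ε • w₁) := by
    rw [← Module.End.mem_eigenspace_iff.mp hw1m, hw1, ← Module.End.mul_apply, ← Module.End.mul_apply,
      ← Module.End.mul_apply, ← map_mul, ← map_mul, ← map_mul]
    congr 2
    group
  set u := ε • w₁ - ε • w with hu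
  have hum : u ∈ W := sub_mem (W.smul_mem _ hw1m) (W.smul_mem _ hw)
  have hhu : ρ h u = ρ g (ρ h w) - ε • ρ h w := by
    rw [hu, map_sub, hgy, map_smul (ρ h) ε w]
  have hu0 : u ≠ 0 := by
    intro h0
    apply hw'
    rw [Module.End.mem_eigenspace_iff]
    rw [h0, map_zero] at hhu
    exact sub_eq_zero.mp hhu.symm
  have horth : ∀ v ∈ W, ⟪Φ ρ v, Φ ρ (ρ h u)⟫_ℂ = 0 := by
    intro v hv
    have h1 : ⟪Φ ρ v, Φ ρ (ρ g (ρ h w))⟫_ℂ = ε * ⟪Φ ρ v, Φ ρ (ρ h w)⟫_ℂ := by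
      have h2 := inner_Φ ρ g v (ρ h w)
      rw [Module.End.mem_eigenspace_iff.mp hv, map_smul, inner_smul_left] at h2
      rw [← h2, ← mul_assoc, Complex.mul_conj, Complex.normSq_eq_norm_sq, hε]
      simp
    rw [hhu, map_sub, map_smul, inner_sub_right, inner_smul_right, h1, sub_self]
  have hle := hbh u hum
  have hsq : ‖μ • Φ ρ (ρ h u) - Φ ρ u‖ ^ 2 = 2 * ‖Φ ρ u‖ ^ 2 := by
    rw [norm_sub_sq (𝕜 := ℂ), inner_smul_left, ← inner_conj_symm, horth u hum, norm_smul, hμ, norm_Φ]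
    simp
    ring
  have hpos : 0 < ‖Φ ρ u‖ := norm_pos_iff.mpr (Φ_ne_zero ρ hu0)
  have := pow_le_pow_left₀ (norm_nonneg _) hle 2
  rw [hsq, mul_pow] at this
  nlinarith [mul_lt_mul_of_pos_right hr (pow_pos hpos 2)]

/-- Blichfeldt's lemma for simple groups. -/
theorem not_sixty [IsSimpleGroup G] [ρ.IsIrreducible] (hinj : Function.Injective ρ) {g : G} (hg1 : g ≠ 1)
    (hcen : Subgroup.center G = ⊥) {ε : ℂ} (hε : ‖ε‖ = 1) {s : ℝ} (hs : 0 ≤ s) (hs1 : s < 1)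
    (hg : Bound ρ g ε s) : Module.End.eigenspace (ρ g) ε = ⊥ := by
  classical
  set W := Module.End.eigenspace (ρ g) ε with hW
  let P : Subgroup G :=
    { carrier := {y | ∀ w ∈ W, ρ y w ∈ W}
      one_mem' := fun w hw => by simpa using hw
      mul_mem' := fun {a b} ha hb w hw => by
        rw [map_mul, Module.End.mul_apply]; exact ha _ (hb _ hw)
      inv_mem' := fun {a} ha w hw => by
        have hk : ∀ k : ℕ, ρ (a ^ k) w ∈ W := by
          intro k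
          induction k with
          | zero => simpa using hw
          | succ k ih => rw [pow_succ', map_mul, Module.End.mul_apply]; exact ha _ ih
        obtain ⟨k, hk'⟩ := (mem_powers_iff_mem_zpowers (x := a) (y := a⁻¹)).mpr
          (Subgroup.inv_mem _ (Subgroup.mem_zpowers a))
        simp only at hk'
        rw [← hk']
        exact hk k }
  have hnc : Subgroup.normalClosure ({g} : Set G) ≤ P := by
    rw [Subgroup.normalClosure, Subgroup.closure_le]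
    intro y hy
    obtain ⟨a, ha, hay⟩ := Group.mem_conjugatesOfSet_iff.mp hy
    rw [Set.mem_singleton_iff] at ha
    obtain ⟨x, rfl⟩ := isConj_iff.mp hay
    rw [ha]
    exact conj_preserves hε hs hs1 hg x
  have htop : Subgroup.normalClosure ({g} : Set G) = ⊤ := by
    refine (Subgroup.normalClosure_normal.eq_bot_or_eq_top).resolve_left fun h => hg1 ?_
    rw [← Subgroup.mem_bot, ← h]
    exact Subgroup.subset_normalClosure rfl
  by_contra hne
  let S : Subrepresentation ρ :=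
    { toSubmodule := W
      apply_mem_toSubmodule := fun y w hw => hnc (htop ▸ Subgroup.mem_top y) w hw }
  have hst : W = ⊤ := by
    rcases IsSimpleOrder.eq_bot_or_eq_top S with h | h
    · exact absurd (congrArg Subrepresentation.toSubmodule h) hne
    · exact congrArg Subrepresentation.toSubmodule h
  apply hg1
  rw [← Subgroup.mem_bot, ← hcen, Subgroup.mem_center_iff]
  intro y
  apply hinj
  apply LinearMap.ext
  intro v
  have hev : ∀ v, ρ g v = ε • v := fun v =>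
    Module.End.mem_eigenspace_iff.mp (show v ∈ W by rw [hst]; trivial)
  rw [map_mul, map_mul, Module.End.mul_apply, Module.End.mul_apply, hev, hev, map_smul]

end CfsgLib.Blichfeldt
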