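import Mathlib

/-!
Divisibility of a sum of `p`-th roots of unity by an integer in the algebraic integers.
-/

namespace CfsgLib.Blichfeldt

open Polynomial

theorem congr_of_dvd_sum_field {p : ℕ} [hp : Fact p.Prime] {K : Type*} [Field K] [CharZero K]
    [IsCyclotomicExtension {p} ℚ K] {z : K} (hz : IsPrimitiveRoot z p) {m : ℕ → ℤ} {D : ℤ} {x : K}
    (hx : IsIntegral ℤ x) (h : ∑ j ∈ Finset.range p, (m j : K) * z ^ j = (D : K) * x) :
    ∀ i < p, ∀ j < p, D ∣ m i - m j := by
  have hic := IsCyclotomicExtension.Rat.isIntegralClosure_adjoin_singleton_of_prime hz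
  obtain ⟨y, hy⟩ := hic.isIntegral_iff.mp hx
  have hmem : x ∈ Algebra.adjoin ℤ ({z} : Set K) := hy ▸ y.2
  rw [Algebra.adjoin_singleton_eq_range_aeval] at hmem
  obtain ⟨R, hR⟩ := hmem
  let P : ℤ[X] := ∑ j ∈ Finset.range p, C (m j) * X ^ j
  let R' := R %ₘ cyclotomic p ℤ
  have hp0 : 0 < p := hp.out.pos
  have hR' : aeval z R' = x := by
    have he := congrArg (aeval z) (modByMonic_add_div R (cyclotomic p ℤ))
    have h0 : aeval z (cyclotomic p ℤ) = 0 := by
      rw [aeval_def, eval₂_eq_eval_map, map_cyclotomic]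
      exact hz.isRoot_cyclotomic hp0
    rw [map_add, map_mul, h0, zero_mul, add_zero] at he
    rw [he]
    exact hR
  have hP : aeval z (P - C D * R') = 0 := by
    rw [map_sub, map_mul, hR', sub_eq_zero]
    simpa [P, map_sum] using h
  have hmin : cyclotomic p ℤ ∣ P - C D * R' := by
    rw [cyclotomic_eq_minpoly hz hp0]
    exact minpoly.isIntegrallyClosed_dvd (hz.isIntegral hp0) hP
  obtain ⟨T, hT⟩ := hmin
  have hdeg : T.natDegree = 0 := by
    by_cases hT0 : T = 0
    · simp [hT0]
    · have hle : (P - C D * R').natDegree ≤ p - 1 := by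
        refine (natDegree_sub_le_of_le (m := p - 1) (n := p - 1)
          (natDegree_sum_le_of_forall_le _ _ fun j hj => ?_)
          ((natDegree_C_mul_le _ _).trans ?_)).trans (max_self _).le
        · refine (natDegree_C_mul_X_pow_le _ _).trans ?_
          have := Finset.mem_range.mp hj
          omega
        · have h1 := natDegree_modByMonic_le R (cyclotomic.monic p ℤ)
          rwa [natDegree_cyclotomic, Nat.totient_prime hp.out] at h1
      rw [hT, (cyclotomic.monic p ℤ).natDegree_mul' hT0, natDegree_cyclotomic, Nat.totient_prime hp.out] at hle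
      omega
  have hci : ∀ i < p, m i - D * R'.coeff i = T.coeff 0 := fun i hi => by
    have := congrArg (fun Q : ℤ[X] => Q.coeff i) hT
    rw [eq_C_of_natDegree_eq_zero hdeg, cyclotomic_prime] at this
    simpa [P, coeff_mul_C, finsetSum_coeff, coeff_C_mul, coeff_X_pow, hi] using this
  intro i hi j hj
  exact ⟨R'.coeff i - R'.coeff j, by linear_combination hci i hi - hci j hj⟩

/-- If `∑ m j ζ^j` is `D` times an algebraic integer then the `m j` are congruent modulo `D`. -/
theorem congr_of_dvd_sum {p : ℕ} [hp : Fact p.Prime] {ζ : ℂ} (hζ : IsPrimitiveRoot ζ p) {m : ℕ → ℤ}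
    {D : ℤ} (hD : D ≠ 0) {α : ℂ} (hα : IsIntegral ℤ α)
    (h : ∑ j ∈ Finset.range p, (m j : ℂ) * ζ ^ j = (D : ℂ) * α) :
    ∀ i < p, ∀ j < p, D ∣ m i - m j := by
  haveI : NeZero p := ⟨hp.out.pos.ne'⟩
  let L := IntermediateField.adjoin ℚ ({ζ} : Set ℂ)
  haveI : IsCyclotomicExtension {p} ℚ L := by
    change IsCyclotomicExtension {p} ℚ L.toSubalgebra
    rw [IntermediateField.adjoin_simple_toSubalgebra_of_isAlgebraic
      ((hζ.isIntegral hp.out.pos).tower_top (A := ℚ)).isAlgebraic]
    exact hζ.adjoin_isCyclotomicExtension ℚ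
  let z : L := ⟨ζ, IntermediateField.mem_adjoin_simple_self ℚ ζ⟩
  have hz : IsPrimitiveRoot z p := IsPrimitiveRoot.of_map_of_injective (f := L.val) hζ Subtype.val_injective
  have hmem : α ∈ L := by
    rw [show α = (∑ j ∈ Finset.range p, (m j : ℂ) * ζ ^ j) / (D : ℂ) by
      rw [h, mul_div_cancel_left₀ _ (Int.cast_ne_zero.mpr hD)]]
    refine L.div_mem (L.toSubfield.sum_mem fun j _ => L.mul_mem ?_ (pow_mem z.2 j)) ?_
    · exact intCast_mem L _
    · exact intCast_mem L _
  refine congr_of_dvd_sum_field hz (x := (⟨α, hmem⟩ : L)) ?_ (Subtype.ext ?_)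
  · exact (isIntegral_algHom_iff (L.val.restrictScalars ℤ) Subtype.val_injective).mp hα
  · push_cast
    simpa using h

end CfsgLib.Blichfeldt
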