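import Mathlib

/-!
Simultaneous approximation modulo a prime with six boxes, and the chord bound at sixty degrees.
-/

namespace CfsgLib.Blichfeldt

theorem six_boxes {p : ℕ} [hp : Fact p.Prime] (S : Finset (ZMod p)) (h : 6 ^ S.card < p) :
    ∃ t : ZMod p, t ≠ 0 ∧ ∀ a ∈ S, ∃ D : ℤ, (D : ZMod p) = t * a ∧ 6 * |D| < p := by
  classical
  have hp0 : 0 < p := hp.out.pos
  let box : ZMod p → (S → Fin 6) := fun k a =>
    ⟨6 * (k * a.1).val / p, by
      rw [Nat.div_lt_iff_lt_mul hp0]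
      exact Nat.mul_lt_mul_of_pos_left (ZMod.val_lt _) (by norm_num)⟩
  obtain ⟨k₁, k₂, hne, he⟩ := Fintype.exists_ne_map_eq_of_card_lt box (by
    rw [Fintype.card_fun, Fintype.card_fin, Fintype.card_coe, ZMod.card]; exact h)
  refine ⟨k₂ - k₁, sub_ne_zero.mpr hne.symm, fun a ha => ?_⟩
  refine ⟨((k₂ * a).val : ℤ) - ((k₁ * a).val : ℤ), ?_, ?_⟩
  · push_cast
    rw [ZMod.natCast_zmod_val, ZMod.natCast_zmod_val, sub_mul]
  · have h1 : 6 * (k₁ * a).val / p = 6 * (k₂ * a).val / p :=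
      congrArg Fin.val (congrFun he ⟨a, ha⟩)
    have h2 := Nat.div_add_mod (6 * (k₁ * a).val) p
    have h3 := Nat.div_add_mod (6 * (k₂ * a).val) p
    have h4 := Nat.mod_lt (6 * (k₁ * a).val) hp0
    have h5 := Nat.mod_lt (6 * (k₂ * a).val) hp0
    rw [h1] at h2
    generalize p * (6 * (k₂ * a).val / p) = q at h2 h3
    rcases abs_cases (((k₂ * a).val : ℤ) - ((k₁ * a).val : ℤ)) with ⟨he, -⟩ | ⟨he, -⟩ <;> rw [he] <;> omega

theorem norm_exp_sub_one_lt {p : ℕ} (hp : 0 < p) {D : ℤ} (hD : 6 * |D| < p) :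
    ‖Complex.exp (2 * Real.pi * Complex.I / p) ^ D - 1‖ < 1 := by
  set θ : ℝ := 2 * Real.pi * D / p with hθ
  have he : Complex.exp (2 * Real.pi * Complex.I / p) ^ D = Complex.exp (θ * Complex.I) := by
    rw [← Complex.exp_int_mul]
    congr 1
    rw [hθ]
    push_cast
    ring
  have habs : |θ| < Real.pi / 3 := by
    have hp' : (0 : ℝ) < p := by exact_mod_cast hp
    have hD' : 6 * |(D : ℝ)| < p := by exact_mod_cast hD
    rw [hθ, abs_div, abs_mul, abs_mul, abs_two, abs_of_pos Real.pi_pos, abs_of_pos hp',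
      div_lt_iff₀ hp']
    nlinarith [Real.pi_pos]
  have hcos : 1 / 2 < Real.cos θ := by
    rw [← Real.cos_pi_div_three, ← Real.cos_abs θ]
    exact Real.cos_lt_cos_of_nonneg_of_le_pi (abs_nonneg _) (by linarith [Real.pi_pos]) habs
  have hsq : ‖Complex.exp (θ * Complex.I) - 1‖ ^ 2 = 2 - 2 * Real.cos θ := by
    rw [Complex.sq_norm, Complex.normSq_apply]
    simp [Complex.exp_ofReal_mul_I_re, Complex.exp_ofReal_mul_I_im]
    nlinarith [Real.sin_sq_add_cos_sq θ]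
  rw [he]
  nlinarith [norm_nonneg (Complex.exp (θ * Complex.I) - 1)]

end CfsgLib.Blichfeldt
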