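import Cfsg.Agent.Blichfeldt.Basic
import Cfsg.Agent.Blichfeldt.Congr
import Cfsg.Agent.Blichfeldt.Dirichlet
import Cfsg.Agent.CharBasics.ModP
import Cfsg.Agent.CharBasics.Burnside
import Cfsg.Agent.Blocks.Idempotent
import Cfsg.Agent.Blocks.Glauberman

/-!
A simple group of order `p^a q^b g₀` has `p < 6^(g₀ - 1)`.
-/

namespace CfsgLib.Blichfeldt

open Cfsg CfsgLib.Blocks CfsgLib.CharBasics CfsgLib.FrobJordan
open scoped ComplexConjugate InnerProductSpace

variable {G : Type*} [Group G] [Finite G]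

theorem exists_block_char {p q : ℕ} {M : Ideal AlgInt} (hM : IsPModular p M) (hq : q.Prime)
    {z : G} (hz : p ∣ orderOf z) :
    ∃ χ : IrrCharacter G, χ ≠ oneChar ∧ χ ∈ principalBlock M G ∧ ¬ q ∣ charDegree (χ : G → ℂ) := by
  classical
  haveI := Fintype.ofFinite G
  haveI : Fintype (IrrCharacter G) := @Fintype.ofFinite _ finite_irrCharacter
  by_contra hno
  push Not at hno
  have h := weak_block_orth' hM isPBlock_principal (x := (1 : G))
    (by rw [orderOf_one]; exact hM.1.not_dvd_one) hz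
  rw [finsum_mem_def, finsum_eq_sum_of_fintype,
    ← Finset.add_sum_erase _ _ (Finset.mem_univ (oneChar : IrrCharacter G)),
    Set.indicator_of_mem (oneChar_mem_principal hM)] at h
  simp only [oneChar_apply, map_one, mul_one] at h
  have hsum : IsIntegral ℤ ((∑ χ ∈ Finset.univ.erase (oneChar : IrrCharacter G),
      (principalBlock M G).indicator (fun χ : IrrCharacter G => (χ : G → ℂ) z * conj ((χ : G → ℂ) 1)) χ) /
        (q : ℂ)) := by
    rw [Finset.sum_div]
    refine IsIntegral.sum _ fun χ hχ => ?_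
    by_cases hm : χ ∈ principalBlock M G
    · rw [Set.indicator_of_mem hm]
      obtain ⟨c, hc⟩ := hno χ (Finset.mem_erase.mp hχ).1 hm
      rw [apply_one (isCharacter_of_irr χ.2), hc, Complex.conj_natCast]
      push_cast
      rw [show (χ : G → ℂ) z * ((q : ℂ) * c) / q = (c : ℂ) * (χ : G → ℂ) z by
        field_simp [Nat.cast_ne_zero.mpr hq.ne_zero]]
      exact (isIntegral_algebraMap (R := ℤ) (x := (c : ℤ))).mul (isIntegral_apply (isCharacter_of_irr χ.2) z)
    · rw [Set.indicator_of_notMem hm, zero_div]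
      exact isIntegral_zero
  rw [eq_neg_of_add_eq_zero_right h] at hsum
  have : IsIntegral ℤ (((1 : ℕ) : ℂ) / (q : ℂ)) := by
    simpa [neg_div] using hsum.neg
  exact hq.one_lt.ne' (Nat.dvd_one.mp (nat_dvd_of_isIntegral 1 q hq.ne_zero this))

theorem character_eq_sum {G : Type*} [Group G] [Fintype G] {n : ℕ} (ρ : Representation ℂ G (Fin n → ℂ))
    {v : Fin n → (Fin n → ℂ)} (hv0 : ∀ i, v i ≠ 0)
    (ho : ∀ i j, i ≠ j → ⟪Φ ρ (v i), Φ ρ (v j)⟫_ℂ = 0) {g : G} {l : Fin n → ℂ}
    (hl : ∀ i, ρ g (v i) = l i • v i) : ρ.character g = ∑ i, l i := by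
  classical
  have hli : LinearIndependent ℂ v :=
    LinearIndependent.of_comp (Φ ρ) (linearIndependent_of_ne_zero_of_inner_eq_zero
      (fun i => Φ_ne_zero ρ (hv0 i)) (fun i j hij => ho i j hij))
  let B := Module.Basis.mk hli (hli.span_eq_top_of_card_eq_finrank' (by simp)).ge
  show LinearMap.trace ℂ _ (ρ g) = _
  rw [LinearMap.trace_eq_matrix_trace ℂ B, Matrix.trace]
  refine Finset.sum_congr rfl fun i _ => ?_
  have hB : B i = v i := by simp [B]
  rw [Matrix.diag_apply, LinearMap.toMatrix_apply, hB, hl, map_smul, ← hB, Module.Basis.repr_self]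
  simp

theorem bound_six [IsSimpleGroup G] (hcen : Subgroup.center G = ⊥) (p q a b g₀ : ℕ) (hp : p.Prime) (hq : q.Prime)
    (ha : 0 < a) (hg : Nat.card G = p ^ a * q ^ b * g₀) (hcop : ¬ p ∣ g₀) : p < 6 ^ (g₀ - 1) := by
  classical
  haveI := Fact.mk hp
  haveI : NeZero p := ⟨hp.ne_zero⟩
  haveI := Fintype.ofFinite G
  obtain ⟨M, hM⟩ := exists_modular hp
  -- a central element of order `p` of a Sylow `p`-subgroup
  let P : Sylow p G := default
  have hpG : p ∣ Nat.card G := hg ▸ Dvd.dvd.mul_right (Dvd.dvd.mul_right (dvd_pow_self p ha.ne') _) _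
  haveI : Nontrivial P := Finite.one_lt_card_iff_nontrivial.mp (by
    rw [P.card_eq_multiplicity]
    exact Nat.one_lt_pow (hp.factorization_pos_of_dvd Nat.card_pos.ne' hpG).ne' hp.one_lt)
  haveI := P.2.center_nontrivial
  obtain ⟨z₀, hz₀⟩ : ∃ z : Subgroup.center P, orderOf z = p :=
    exists_prime_orderOf_dvd_card' p (by
      obtain ⟨k, hk⟩ := (P.2.to_subgroup (Subgroup.center P)).exists_card_eq
      rw [hk]
      refine dvd_pow_self p fun h0 => ?_
      rw [h0, pow_zero] at hk
      exact (Finite.one_lt_card (α := Subgroup.center P)).ne' hk)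
  set z : G := ((z₀ : P) : G) with hzdef
  have hzord : orderOf z = p := by
    rw [hzdef, Subgroup.orderOf_coe, Subgroup.orderOf_coe, hz₀]
  have hPle : (P : Subgroup G) ≤ Subgroup.centralizer ({z} : Set G) := by
    intro x hx
    rw [Subgroup.mem_centralizer_singleton_iff]
    exact congrArg Subtype.val (Subgroup.mem_center_iff.mp z₀.2 ⟨x, hx⟩)
  set K := (Subgroup.centralizer ({z} : Set G)).index with hK
  have hpK : ¬ p ∣ K := fun h => P.not_dvd_index (h.trans (Subgroup.index_dvd_of_le hPle))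
  -- the character
  obtain ⟨χ, hχ1, hχB, hqd⟩ := exists_block_char hM hq (by rw [hzord])
  have hc := isCharacter_of_irr χ.2
  set n := charDegree (χ : G → ℂ) with hn
  have hn0 : 0 < n := charDegree_pos χ.2
  have hcongr : MemLocalIdeal M ((K : ℂ) * (χ : G → ℂ) z / (n : ℂ) - (K : ℂ)) := by
    have h := sameBlock_symm hχB z
    simpa [centralChar, apply_one hc, ← hn, ← hK] using h
  -- the degree
  set e := n.factorization p with he
  set d := n / p ^ e with hd
  have hnd : p ^ e * d = n := Nat.mul_div_cancel' (Nat.ordProj_dvd n p)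
  have hd0 : 0 < d := Nat.pos_of_ne_zero fun h0 => by rw [h0, mul_zero] at hnd; omega
  have hpd : ¬ p ∣ d := Nat.not_dvd_ordCompl hp hn0.ne'
  have hdg : d ∣ g₀ := by
    have h1 : d ∣ p ^ a * q ^ b * g₀ :=
      (Dvd.intro_left _ hnd).trans (hg ▸ degree_dvd χ)
    have hcp : d.Coprime (p ^ a * q ^ b) :=
      Nat.Coprime.mul_right ((Nat.coprime_comm.mp (hp.coprime_iff_not_dvd.mpr hpd)).pow_right a)
        ((Nat.coprime_comm.mp (hq.coprime_iff_not_dvd.mpr fun h => hqd (h.trans (Dvd.intro_left _ hnd)))).pow_right b)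
    exact hcp.dvd_of_dvd_mul_left h1
  have hg₀ : 0 < g₀ := Nat.pos_of_ne_zero fun h0 => hcop (h0 ▸ dvd_zero p)
  have hdle : d ≤ g₀ := Nat.le_of_dvd hg₀ hdg
  -- a unitary eigenbasis
  obtain ⟨nn, ρ, hirr, hρ⟩ := χ.2
  have hnn : nn = n := by
    have := apply_one hc
    rw [← hρ, Representation.char_one, Module.finrank_fin_fun] at this
    rw [hn, ← hρ]
    exact_mod_cast this
  subst hnn
  haveI := hirr
  have hinj : Function.Injective ρ := by
    intro x y hxy
    rcases IsSimpleGroup.eq_bot_or_eq_top_of_normal _ (charKer_normal hc) with hker | hker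
    · have : x⁻¹ * y ∈ charKer _ hc := by
        rw [mem_charKer, ← hρ]
        simp only [Representation.character, map_mul, map_one]
        rw [← hxy, ← map_mul, inv_mul_cancel, map_one]
      rw [hker, Subgroup.mem_bot, inv_mul_eq_one] at this
      exact this
    · exfalso
      have hall : ∀ x : G, (χ : G → ℂ) x = (χ : G → ℂ) 1 := fun x => by
        rw [← mem_charKer hc, hker]; trivial
      have h0 := sum_irr_eq_zero χ.2 (fun h => hχ1 (Subtype.ext h))
      rw [Finset.sum_congr rfl (fun x _ => hall x), Finset.sum_const, nsmul_eq_mul] at h0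
      exact mul_ne_zero (Nat.cast_ne_zero.mpr (Finset.card_pos.mpr ⟨1, Finset.mem_univ _⟩).ne') (apply_one_ne_zero χ.2) h0
  have hzc : ∀ x ∈ Subgroup.zpowers z, ∀ y ∈ Subgroup.zpowers z, x * y = y * x := by
    intro x hx y hy
    obtain ⟨i, rfl⟩ := Subgroup.mem_zpowers_iff.mp hx
    obtain ⟨j, rfl⟩ := Subgroup.mem_zpowers_iff.mp hy
    exact zpow_mul_comm z i j
  obtain ⟨v, hv0, hvo, hve⟩ := exists_orth_eigen ρ _ hzc n le_rfl
  choose l hl using fun i => hve i z (Subgroup.mem_zpowers z)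
  have hlk : ∀ (k : ℕ) i, ρ (z ^ k) (v i) = l i ^ k • v i := by
    intro k i
    induction k with
    | zero => simp
    | succ k ih => rw [pow_succ', map_mul, Module.End.mul_apply, ih, map_smul, hl, smul_smul, ← pow_succ]
  set ζ : ℂ := Complex.exp (2 * Real.pi * Complex.I / p) with hζdef
  have hζ : IsPrimitiveRoot ζ p := Complex.isPrimitiveRoot_exp p hp.ne_zero
  have hlp : ∀ i, ∃ j < p, ζ ^ j = l i := fun i => by
    refine hζ.eq_pow_of_pow_eq_one ?_
    have := hlk p i
    rw [← hzord, pow_orderOf_eq_one, map_one, Module.End.one_apply, hzord] at this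
    exact (smul_left_injective ℂ (hv0 i) (by simpa using this)).symm
  choose f hfp hf using hlp
  have hχz : (χ : G → ℂ) z = ∑ i, l i := by
    rw [← hρ]; exact character_eq_sum ρ hv0 hvo hl
  let m : ℕ → ℤ := fun j => ((Finset.univ.filter fun i => f i = j).card : ℤ)
  have hmsum : ∑ j ∈ Finset.range p, m j = (n : ℤ) := by
    simp only [m]
    rw [← Nat.cast_sum, ← Finset.card_eq_sum_card_fiberwise (fun i _ => Finset.mem_range.mpr (hfp i))]
    simp
  have hmz : ∑ j ∈ Finset.range p, (m j : ℂ) * ζ ^ j = (χ : G → ℂ) z := by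
    rw [hχz, ← Finset.sum_fiberwise_of_maps_to (fun i (_ : i ∈ Finset.univ) => Finset.mem_range.mpr (hfp i)) l]
    refine Finset.sum_congr rfl fun j _ => ?_
    rw [Finset.sum_congr rfl (fun i hi => by rw [← hf i, (Finset.mem_filter.mp hi).2]), Finset.sum_const, nsmul_eq_mul]
    simp [m]
  set α : ℂ := (χ : G → ℂ) z / (p : ℂ) ^ e with hαdef
  have hpe : ((p : ℂ) ^ e) ≠ 0 := pow_ne_zero _ (Nat.cast_ne_zero.mpr hp.ne_zero)
  have hncast : (n : ℂ) = (p : ℂ) ^ e * d := by exact_mod_cast hnd.symm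
  have hdc : (d : ℂ) ≠ 0 := Nat.cast_ne_zero.mpr hd0.ne'
  have hα : IsIntegral ℤ α := by
    obtain ⟨u, w, huw⟩ := ((hp.coprime_iff_not_dvd.mpr hpK).pow_left e).isCoprime
    have h1 := isIntegral_centralChar χ.2 z
    have h2 : IsIntegral ℤ ((χ : G → ℂ) z) := isIntegral_apply hc z
    have huwC : (u : ℂ) * (p : ℂ) ^ e + (w : ℂ) * K = 1 := by
      have := congrArg (Int.cast : ℤ → ℂ) huw
      push_cast at this ⊢
      exact this
    have : α = (u : ℂ) * (χ : G → ℂ) z + (w : ℂ) * ((d : ℂ) * centralChar (χ : G → ℂ) z) := by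
      rw [hαdef, centralChar, ← hK, apply_one hc, ← hn, hncast]
      field_simp
      linear_combination -((χ : G → ℂ) z) * huwC
    rw [this]
    exact ((isIntegral_algebraMap (R := ℤ) (x := u)).mul h2).add ((isIntegral_algebraMap (R := ℤ) (x := w)).mul
      ((isIntegral_algebraMap (R := ℤ) (x := (d : ℤ))).mul h1))
  have hαd : MemLocalIdeal M (α - d) := by
    have hKd : (K : ℂ) ≠ 0 := Nat.cast_ne_zero.mpr fun h => hpK (h ▸ dvd_zero p)
    have : α - (d : ℂ) = ((d : ℂ) * (K : ℂ)⁻¹) * ((K : ℂ) * (χ : G → ℂ) z / (n : ℂ) - K) := by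
      rw [hαdef, hncast]; field_simp
    rw [this]
    exact memLocalIdeal_mul_left hM
      (memLocalRing_mul hM (memLocalRing_natCast hM d) (memLocalRing_natCast_inv hM hpK)) hcongr
  have hcong : ∀ i < p, ∀ j < p, ((p : ℤ) ^ e) ∣ m i - m j :=
    congr_of_dvd_sum hζ (pow_ne_zero _ (Int.natCast_ne_zero.mpr hp.ne_zero)) hα (by
      rw [hmz, hαdef]; push_cast; rw [mul_div_cancel₀ _ hpe])
  -- the eigenvalues are few
  set S : Finset ℕ := Finset.univ.image f with hS
  have hsmall : S.card ≤ d ∨ p ≤ d := by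
    by_cases hzero : ∃ j < p, m j = 0
    · left
      obtain ⟨j₀, hj₀, hm0⟩ := hzero
      have hge : ∀ j ∈ S, (p : ℤ) ^ e ≤ m j := by
        intro j hj
        obtain ⟨i, -, rfl⟩ := Finset.mem_image.mp hj
        have h1 := hcong _ (hfp i) _ hj₀
        rw [hm0, sub_zero] at h1
        refine Int.le_of_dvd ?_ h1
        show (0 : ℤ) < ((Finset.univ.filter fun i' => f i' = f i).card : ℤ)
        have hcard : 0 < (Finset.univ.filter fun i' => f i' = f i).card := Finset.card_pos.mpr ⟨i, by simp⟩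
        exact_mod_cast hcard
      have h2 : (S.card : ℤ) * (p : ℤ) ^ e ≤ n := by
        rw [← hmsum, ← nsmul_eq_mul]
        refine (Finset.card_nsmul_le_sum _ _ _ hge).trans (Finset.sum_le_sum_of_subset_of_nonneg ?_ fun j _ _ => by positivity)
        intro j hj
        obtain ⟨i, -, rfl⟩ := Finset.mem_image.mp hj
        exact Finset.mem_range.mpr (hfp i)
      have h3 : S.card * p ^ e ≤ d * p ^ e := by rw [mul_comm d, hnd]; exact_mod_cast h2
      exact Nat.le_of_mul_le_mul_right h3 (pow_pos hp.pos e)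
    · right
      push Not at hzero
      obtain ⟨j₀, hj₀, hmin⟩ := Finset.exists_min_image (Finset.range p) m ⟨0, Finset.mem_range.mpr hp.pos⟩
      rw [Finset.mem_range] at hj₀
      set c := m j₀ with hc0
      have hc1 : 1 ≤ c := by
        have := hzero j₀ hj₀
        have : 0 ≤ c := by positivity
        omega
      choose kf hkf using fun j : Fin p => hcong j.1 j.2 _ hj₀
      let k : ℕ → ℤ := fun j => if h : j < p then kf ⟨j, h⟩ else 0
      have hk : ∀ j ∈ Finset.range p, m j = c + (p : ℤ) ^ e * k j := fun j hj => by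
        rw [Finset.mem_range] at hj
        have := hkf ⟨j, hj⟩
        simp only [k, dif_pos hj]
        linarith
      set Kk := ∑ j ∈ Finset.range p, k j with hKk
      have hn2 : (n : ℤ) = p * c + (p : ℤ) ^ e * Kk := by
        rw [← hmsum, Finset.sum_congr rfl hk, Finset.sum_add_distrib, ← Finset.mul_sum, Finset.sum_const,
          Finset.card_range, nsmul_eq_mul]
      have hα2 : α = ∑ j ∈ Finset.range p, (k j : ℂ) * ζ ^ j := by
        rw [hαdef, ← hmz, div_eq_iff hpe, Finset.sum_mul]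
        rw [Finset.sum_congr rfl (fun j hj => show (m j : ℂ) * ζ ^ j =
          (c : ℂ) * ζ ^ j + (k j : ℂ) * ζ ^ j * (p : ℂ) ^ e by rw [hk j hj]; push_cast; ring),
          Finset.sum_add_distrib, ← Finset.mul_sum, hζ.geom_sum_eq_zero hp.one_lt, mul_zero, zero_add]
      have hαK : MemLocalIdeal M (α - Kk) := by
        rw [hα2, hKk, Int.cast_sum, ← Finset.sum_sub_distrib]
        refine memLocalIdeal_sum hM _ fun j _ => ?_
        rw [← mul_sub_one]
        exact memLocalIdeal_mul_left hM (memLocalRing_intCast hM _)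
          (root_sub_one_mem hM (k := 1) (by rw [pow_one, ← pow_mul, mul_comm, pow_mul, hζ.pow_eq_one, one_pow]))
      have hdvd : (p : ℤ) ∣ (d : ℤ) - Kk := by
        rw [← memLocalIdeal_intCast_iff hM]
        have := memLocalIdeal_sub hM hαK hαd
        rw [sub_sub_sub_cancel_left] at this
        exact_mod_cast this
      have hndz : (n : ℤ) = (p : ℤ) ^ e * d := by exact_mod_cast hnd.symm
      have hpos : 0 < (d : ℤ) - Kk := by
        have h1 : (0 : ℤ) < (p : ℤ) ^ e * ((d : ℤ) - Kk) := by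
          have : (0 : ℤ) < (p : ℤ) * c := mul_pos (by exact_mod_cast hp.pos) (by omega)
          rw [mul_sub, ← hndz]; linarith
        exact pos_of_mul_pos_right h1 (by positivity)
      have hKk0 : 0 ≤ Kk := Finset.sum_nonneg fun j hj => by
        have := hmin j hj
        rw [hk j hj] at this
        have h1 : 0 ≤ (p : ℤ) ^ e * k j := by linarith
        exact nonneg_of_mul_nonneg_right h1 (pow_pos (by exact_mod_cast hp.pos) e)
      have := Int.le_of_dvd hpos hdvd
      omega
  rcases hsmall with hSd | hpd'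
  swap
  · have h2 : 2 ≤ g₀ := le_trans hp.two_le (hpd'.trans hdle)
    calc p ≤ g₀ := hpd'.trans hdle
      _ ≤ 2 ^ (g₀ - 1) := by
        have := Nat.lt_two_pow_self (n := g₀ - 1)
        omega
      _ < 6 ^ (g₀ - 1) := Nat.pow_lt_pow_left (by norm_num) (by omega)
  by_contra hlt
  push Not at hlt
  have hne6 : 6 ^ (g₀ - 1) ≠ p := fun h => by
    have hprime : (6 ^ (g₀ - 1)).Prime := h ▸ hp
    rcases Nat.lt_or_ge (g₀ - 1) 1 with h0 | h0
    · rw [show g₀ - 1 = 0 by omega, pow_zero] at hprime; exact Nat.not_prime_one hprime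
    · have h2 : 2 ∣ 6 ^ (g₀ - 1) := dvd_pow (by norm_num) (by omega)
      have h3 : 3 ∣ 6 ^ (g₀ - 1) := dvd_pow (by norm_num) (by omega)
      have e2 := (Nat.prime_dvd_prime_iff_eq Nat.prime_two hprime).mp h2
      have e3 := (Nat.prime_dvd_prime_iff_eq Nat.prime_three hprime).mp h3
      omega
  obtain ⟨i₀⟩ : Nonempty (Fin n) := ⟨⟨0, hn0⟩⟩
  set T : Finset (ZMod p) := ((S.erase (f i₀)).image fun j : ℕ => ((j : ZMod p) - (f i₀ : ZMod p))) with hT
  have hTc : 6 ^ T.card < p := by
    have h1 : T.card ≤ g₀ - 1 := by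
      refine Finset.card_image_le.trans ?_
      rw [Finset.card_erase_of_mem (Finset.mem_image_of_mem f (Finset.mem_univ i₀)), ← hS]
      omega
    exact lt_of_le_of_lt (Nat.pow_le_pow_right (by norm_num) h1) (lt_of_le_of_ne hlt hne6)
  obtain ⟨t, ht0, ht⟩ := six_boxes T hTc
  have hbound : ∀ i, ‖l i ^ t.val - l i₀ ^ t.val‖ < 1 := by
    intro i
    by_cases hi : f i = f i₀
    · rw [← hf i, hi, hf i₀, sub_self, norm_zero]; exact one_pos
    · obtain ⟨D, hD, hDlt⟩ := ht _ (Finset.mem_image_of_mem _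
        (Finset.mem_erase.mpr ⟨hi, Finset.mem_image_of_mem f (Finset.mem_univ i)⟩))
      have hpow : (ζ ^ f i) ^ t.val = (ζ ^ f i₀) ^ t.val * ζ ^ D := by
        rw [← pow_mul, ← pow_mul, ← zpow_natCast, ← zpow_natCast, ← zpow_add₀ (hζ.ne_zero hp.ne_zero),
          ← div_eq_one_iff_eq (zpow_ne_zero _ (hζ.ne_zero hp.ne_zero)), ← zpow_sub₀ (hζ.ne_zero hp.ne_zero),
          hζ.zpow_eq_one_iff_dvd, ← ZMod.intCast_zmod_eq_zero_iff_dvd]
        push_cast
        rw [hD, ZMod.natCast_zmod_val]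
        ring
      rw [← hf i, ← hf i₀, hpow, ← mul_sub_one, norm_mul, norm_pow, norm_pow,
        Complex.norm_eq_one_of_pow_eq_one hζ.pow_eq_one hp.ne_zero, one_pow, one_pow, one_mul, hζdef]
      exact norm_exp_sub_one_lt hp.pos hDlt
  set g := z ^ t.val with hgdef
  set s := Finset.univ.sup' ⟨i₀, Finset.mem_univ _⟩ fun i => ‖l i ^ t.val - l i₀ ^ t.val‖ with hs
  have hs1 : s < 1 := (Finset.sup'_lt_iff _).mpr fun i _ => hbound i
  have hs0 : 0 ≤ s := le_trans (norm_nonneg _) (Finset.le_sup' (fun i => ‖l i ^ t.val - l i₀ ^ t.val‖) (Finset.mem_univ i₀))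
  have hB : Bound ρ g (l i₀ ^ t.val) s :=
    bound_of_eigen ρ hv0 hvo (hlk t.val) hs0 fun i =>
      Finset.le_sup' (fun i => ‖l i ^ t.val - l i₀ ^ t.val‖) (Finset.mem_univ i)
  have hg1 : g ≠ 1 := fun h => by
    have h1 := orderOf_dvd_of_pow_eq_one h
    rw [hzord] at h1
    have h2 := ZMod.val_lt t
    have h3 : t.val ≠ 0 := fun h => ht0 ((ZMod.val_eq_zero t).mp h)
    have := Nat.le_of_dvd (by omega) h1
    omega
  have hε : ‖l i₀ ^ t.val‖ = 1 := by
    rw [← hf i₀, norm_pow, norm_pow, Complex.norm_eq_one_of_pow_eq_one hζ.pow_eq_one hp.ne_zero, one_pow, one_pow]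
  have hbot := not_sixty (ρ := ρ) hinj hg1 hcen hε hs0 hs1 hB
  have : v i₀ ∈ Module.End.eigenspace (ρ g) (l i₀ ^ t.val) := Module.End.mem_eigenspace_iff.mpr (hlk t.val i₀)
  rw [hbot, Submodule.mem_bot] at this
  exact hv0 i₀ this

end CfsgLib.Blichfeldt
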