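import Cfsg.Agent.SchurRational.Bound
import Cfsg.Agent.Clifford.LinChar
import Cfsg.Agent.Clifford.RepBasic
import Cfsg.Agent.Blocks.DetTwist

/-!
# Elements of coprime orders in a linear group of small degree
-/

set_option autoImplicit false
set_option linter.unusedSectionVars false
set_option linter.style.haveILetI false

namespace CfsgLib.Blichfeldt

open Cfsg CfsgLib.CharBasics CfsgLib.Clifford CfsgLib.SchurRational

universe u

variable {G : Type u} [Group G] [Finite G]

/-- The part of the group order for the primes above `n + 1`. -/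
noncomputable def bigPart (G : Type u) [Group G] (n : ℕ) : ℕ :=
  ∏ q ∈ (Nat.card G).primeFactors.filter (n + 1 < ·), q ^ (Nat.card G).factorization q

theorem bigPart_coprime {n d : ℕ} (hd0 : 0 < d) (hd : d ≤ n) : (bigPart G n).Coprime d := by
  refine Nat.Coprime.prod_left fun q hq => ?_
  rw [Finset.mem_filter, Nat.mem_primeFactors] at hq
  exact (hq.1.1.coprime_iff_not_dvd.2 fun h => by have := Nat.le_of_dvd hd0 h; omega).pow_left _

theorem pow_dvd_bigPart {n q : ℕ} (hq : q.Prime) (hqn : n + 1 < q) :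
    q ^ (Nat.card G).factorization q ∣ bigPart G n := by
  by_cases h : q ∣ Nat.card G
  · exact Finset.dvd_prod_of_mem _ (Finset.mem_filter.2
      ⟨Nat.mem_primeFactors.2 ⟨hq, h, Nat.card_pos.ne'⟩, hqn⟩)
  · rw [Nat.factorization_eq_zero_of_not_dvd h, pow_zero]
    exact one_dvd _

theorem prime_of_dvd_bigPart {n q : ℕ} (hq : q.Prime) (h : q ∣ bigPart G n) : n + 1 < q := by
  obtain ⟨r, hr, hqr⟩ := (Prime.dvd_finset_prod_iff (Nat.prime_iff.1 hq) _).1 h
  rw [Finset.mem_filter, Nat.mem_primeFactors] at hr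
  exact ((Nat.prime_dvd_prime_iff_eq hq hr.1.1).1 (hq.dvd_of_dvd_pow hqr)).symm ▸ hr.2

/-- A twist killing the central part of order dividing `m`. -/
theorem exists_twist {m : ℕ} {ψ : G → ℂ} (hψ : IsIrrCharacter G ψ) (hcop : m.Coprime (charDegree ψ))
    (hm : m ≠ 0) :
    ∃ ψ' : G → ℂ, IsIrrCharacter G ψ' ∧ charDegree ψ' = charDegree ψ ∧
      (∀ z g : G, z ∈ Subgroup.center G → z ^ m = 1 → ψ' (z * g) = ψ' g) ∧
      ∀ a b : G, ψ' (a * b * a⁻¹ * b⁻¹) = ψ (a * b * a⁻¹ * b⁻¹) := by
  classical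
  have hd0 := charDegree_pos hψ
  set d := charDegree ψ
  obtain ⟨e, he⟩ := exists_detHom hψ
  obtain ⟨j, hj⟩ : ∃ j, d * j + 1 ≡ 0 [MOD m] := by
    rcases eq_or_ne m 1 with rfl | h1
    · exact ⟨0, Nat.modEq_one⟩
    haveI : Fact (1 < m) := ⟨by omega⟩
    haveI : NeZero m := ⟨hm⟩
    refine ⟨(-((ZMod.unitOfCoprime d hcop.symm)⁻¹ : (ZMod m)ˣ) : ZMod m).val, ?_⟩
    rw [← ZMod.natCast_eq_natCast_iff]
    push_cast
    rw [ZMod.natCast_val, ZMod.cast_id, mul_neg, neg_add_eq_zero, ← ZMod.coe_unitOfCoprime d hcop.symm,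
      ← Units.val_mul, mul_inv_cancel, Units.val_one]
  have hne : ∀ g, e g ≠ 0 := fun g h => by
    have := map_mul e g g⁻¹
    rw [mul_inv_cancel, map_one, h, zero_mul] at this
    exact one_ne_zero this
  refine ⟨fun g => ((powMonoidHom j).comp e) g * ψ g, isIrrCharacter_linear_mul hψ _, ?_, fun z g hz hzm => ?_,
    fun a b => ?_⟩
  · simp only [Cfsg.charDegree, map_one, one_mul, d]
  · have hψ1 : ψ 1 ≠ 0 := apply_one_ne_zero hψ
    set ω := ψ z / ψ 1
    have hsc : ∀ y, ψ (z * y) = ω * ψ y := fun y => by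
      have := center_mul hψ hz y
      rw [div_mul_eq_mul_div, eq_div_iff hψ1, ← this, mul_comm]
    have hpow : ∀ i : ℕ, ψ (z ^ i) = ω ^ i * d := by
      intro i
      induction i with
      | zero => rw [pow_zero, pow_zero, one_mul, apply_one (isCharacter_of_irr hψ)]
      | succ i ih => rw [pow_succ', hsc, ih, pow_succ', mul_assoc]
    have hωm : ω ^ m = 1 := by
      have h1 := hpow m
      rw [hzm, apply_one (isCharacter_of_irr hψ)] at h1
      exact (mul_eq_right₀ (Nat.cast_ne_zero.2 hd0.ne')).1 h1.symm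
    have hez : e z = ω ^ d := by
      rw [← congrFun he z, DetTwist.detChar_eq_prod hψ (fun _ => ω) fun i => by
        rw [hpow, Finset.sum_const, Finset.card_univ, Fintype.card_fin, nsmul_eq_mul, mul_comm]]
      rw [Finset.prod_const, Finset.card_univ, Fintype.card_fin]
    show (e (z * g)) ^ j * ψ (z * g) = (e g) ^ j * ψ g
    rw [map_mul, hez, hsc, mul_pow, ← pow_mul]
    have h1 : ω ^ (d * j) * ω = 1 := by
      rw [← pow_succ, pow_eq_pow_mod _ hωm, hj]
      simp
    linear_combination (e g) ^ j * ψ g * h1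
  · show (e (a * b * a⁻¹ * b⁻¹)) ^ j * _ = _
    have h1 : e (a * b * a⁻¹ * b⁻¹) = 1 := by
      have ha := map_mul e a a⁻¹
      have hb := map_mul e b b⁻¹
      rw [mul_inv_cancel, map_one] at ha hb
      rw [map_mul, map_mul, map_mul]
      linear_combination -(e b * e b⁻¹) * ha - hb
    rw [h1, one_pow, one_mul]

variable {p q : ℕ}

/-- The kernel of a character fixed by the twists of the `p`-part contains all `p`-elements. -/
theorem pElement_mem_ker [hp : Fact p.Prime] {ψ : G → ℂ} (hψ : IsCharacter G ψ) (hd : charDegree ψ + 1 < p)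
    (hfix : ∀ k : ℕ, k.Coprime (Nat.card G) → k ≡ 1 [MOD Nat.card G / p ^ (Nat.card G).factorization p] →
      ∀ g, ψ (g ^ k) = ψ g) {P : Subgroup G} (hP : IsPGroup p P) {x : G} (hx : x ∈ P) : ψ x = ψ 1 := by
  classical
  set a := (Nat.card G).factorization p
  set m := Nat.card G / p ^ a with hm
  have hG : p ^ a * m = Nat.card G := Nat.ordProj_mul_ordCompl_eq_self _ _
  have hcop : p.Coprime m := Nat.coprime_ordCompl hp.out Nat.card_pos.ne'
  obtain ⟨c, hc⟩ := hP.exists_card_eq
  have hca : c ≤ a := (hp.out.pow_dvd_iff_le_factorization Nat.card_pos.ne').1 (hc ▸ Subgroup.card_subgroup_dvd_card P)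
  obtain ⟨K, hK, hKi⟩ := schur _ P hP _ (CharBasics.isCharacter_comp hψ P.subtype) rfl (fun k hk y => by
    rcases eq_or_ne c 0 with hc0 | hc0
    · haveI : Subsingleton P := (Nat.card_eq_one_iff_unique.1 (by rw [hc, hc0, pow_zero])).1
      rw [Subsingleton.elim (y ^ k) y]
    obtain ⟨k', hk1, hk2⟩ := Nat.chineseRemainder (hcop.pow_left a) k 1
    have hkp : k.Coprime p := hk.coprime_dvd_right (hc ▸ dvd_pow_self p hc0)
    have hk'p : k'.Coprime p := by
      show k'.gcd p = 1
      rcases Nat.eq_zero_or_pos a with ha | ha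
      · omega
      · rw [(hk1.of_dvd (dvd_pow_self p ha.ne')).gcd_eq]; exact hkp
    have hk'c : k'.Coprime (Nat.card G) := by
      rw [← hG]
      refine Nat.Coprime.mul_right (hk'p.pow_right _) ?_
      show k'.gcd m = 1
      rw [hk2.gcd_eq, Nat.gcd_one_left]
    have h := hfix k' hk'c hk2 (y : G)
    have e : ((y ^ k : P) : G) = (y : G) ^ k' := by
      rw [SubmonoidClass.coe_pow, pow_eq_pow_iff_modEq]
      refine (hk1.of_dvd ?_).symm
      rw [Subgroup.orderOf_coe]
      exact (orderOf_dvd_natCard y).trans (hc ▸ pow_dvd_pow p hca)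
    show ψ ((y ^ k : P) : G) = ψ (y : G)
    rw [e, h])
  have hT : T p (charDegree (fun y : P => ψ (P.subtype y))) = 0 := by
    refine Finset.sum_eq_zero fun i _ => Nat.div_eq_of_lt ?_
    have : charDegree (fun y : P => ψ (P.subtype y)) = charDegree ψ := by simp [Cfsg.charDegree]
    rw [this]
    calc charDegree ψ < p - 1 := by omega
      _ ≤ (p - 1) * p ^ i := Nat.le_mul_of_pos_right _ (pow_pos hp.out.pos i)
  rw [hT, pow_zero] at hKi
  have hKtop : K = ⊤ := Subgroup.index_eq_one.1 (le_antisymm hKi (Nat.pos_of_ne_zero Subgroup.index_ne_zero_of_finite))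
  exact hK ⟨x, hx⟩ (hKtop ▸ Subgroup.mem_top _)

/-- The twist of the `p`-part does not change the value at an element with central `p`-part. -/
theorem apply_pow_eq {m : ℕ} {ψ : G → ℂ}
    (hZ : ∀ z g : G, z ∈ Subgroup.center G → z ^ m = 1 → ψ (z * g) = ψ g)
    (hm : p ^ (Nat.card G).factorization p ∣ m) {k : ℕ} (hk0 : 0 < k)
    (hk : k ≡ 1 [MOD Nat.card G / p ^ (Nat.card G).factorization p]) {g : G}
    (hg : g ^ (Nat.card G / p ^ (Nat.card G).factorization p) ∈ Subgroup.center G) : ψ (g ^ k) = ψ g := by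
  set m' := Nat.card G / p ^ (Nat.card G).factorization p
  obtain ⟨c, hc⟩ := (Nat.modEq_iff_dvd' hk0).1 hk.symm
  have hk' : k = m' * c + 1 := by omega
  rw [hk', pow_add, pow_one, pow_mul]
  refine hZ _ g (Subgroup.pow_mem _ hg c) ?_
  obtain ⟨w, rfl⟩ := hm
  rw [← pow_mul, ← pow_mul, show m' * (c * (p ^ (Nat.card G).factorization p * w))
    = (p ^ (Nat.card G).factorization p * m') * (c * w) by ring, pow_mul,
    Nat.ordProj_mul_ordCompl_eq_self, pow_card_eq_one', one_pow]

/-- Either an element has noncentral parts for both primes, or `p`-elements commute with `q`-elements. -/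
theorem parts_or_commute [hp : Fact p.Prime] [hq : Fact q.Prime] {χ : G → ℂ} (hχ : IsCharacter G χ)
    (hfaith : ∀ g, χ g = χ 1 → g = 1) {n : ℕ} (hn : charDegree χ ≤ n) (hpn : n + 1 < p) (hqn : n + 1 < q) :
    (∃ g : G, g ^ (Nat.card G / p ^ (Nat.card G).factorization p) ∉ Subgroup.center G ∧
      g ^ (Nat.card G / q ^ (Nat.card G).factorization q) ∉ Subgroup.center G) ∨
    ∀ (P Q : Subgroup G), IsPGroup p P → IsPGroup q Q → ∀ x ∈ P, ∀ y ∈ Q, x * y = y * x := by
  classical
  haveI := Fintype.ofFinite G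
  by_cases hex : ∃ g : G, g ^ (Nat.card G / p ^ (Nat.card G).factorization p) ∉ Subgroup.center G ∧
      g ^ (Nat.card G / q ^ (Nat.card G).factorization q) ∉ Subgroup.center G
  · exact Or.inl hex
  refine Or.inr fun P Q hP hQ x hx y hy => ?_
  obtain ⟨r, ψ, hψ, hsum⟩ := exists_decomp hχ
  suffices hall : ∀ i, ψ i (x * y * x⁻¹ * y⁻¹) = ψ i 1 by
    have h1 : x * y * x⁻¹ * y⁻¹ = 1 := hfaith _ (by
      rw [hsum, Finset.sum_apply, Finset.sum_apply]
      exact Finset.sum_congr rfl fun i _ => hall i)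
    rwa [mul_inv_eq_one, mul_inv_eq_iff_eq_mul] at h1
  intro i
  have hdi : charDegree (ψ i) ≤ n := by
    refine le_trans ?_ hn
    have h1 : χ 1 = ((∑ i, charDegree (ψ i) : ℕ) : ℂ) := by
      rw [hsum, Finset.sum_apply, Nat.cast_sum]
      exact Finset.sum_congr rfl fun i _ => apply_one (isCharacter_of_irr (hψ i))
    rw [apply_one hχ, Nat.cast_inj] at h1
    rw [h1]
    exact Finset.single_le_sum (f := fun i => charDegree (ψ i)) (fun _ _ => Nat.zero_le _) (Finset.mem_univ i)
  have hcop := bigPart_coprime (G := G) (charDegree_pos (hψ i)) hdi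
  have hM0 : bigPart G n ≠ 0 :=
    Finset.prod_ne_zero_iff.2 fun q hq => pow_ne_zero _ (Nat.prime_of_mem_primeFactors (Finset.mem_filter.1 hq).1).ne_zero
  obtain ⟨φ, hφ, hφd, hφZ, hφc⟩ := exists_twist (hψ i) hcop hM0
  have hker : φ x = φ 1 ∨ φ y = φ 1 := by
    by_contra hc
    rw [not_or] at hc
    obtain ⟨k, hk, hk1, hkne⟩ : ∃ k : ℕ, k.Coprime (Nat.card G) ∧
        k ≡ 1 [MOD Nat.card G / p ^ (Nat.card G).factorization p] ∧ (fun g => φ (g ^ k)) ≠ φ := by
      by_contra h
      push Not at h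
      exact hc.1 (pElement_mem_ker (isCharacter_of_irr hφ) (by omega) (fun k h1 h2 g => congrFun (h k h1 h2) g) hP hx)
    obtain ⟨l, hl, hl1, hlne⟩ : ∃ l : ℕ, l.Coprime (Nat.card G) ∧
        l ≡ 1 [MOD Nat.card G / q ^ (Nat.card G).factorization q] ∧ (fun g => φ (g ^ l)) ≠ φ := by
      by_contra h
      push Not at h
      exact hc.2 (pElement_mem_ker (isCharacter_of_irr hφ) (by omega) (fun k h1 h2 g => congrFun (h k h1 h2) g) hQ hy)
    have hpos : ∀ t : ℕ, t.Coprime (Nat.card G) → (fun g => φ (g ^ t)) ≠ φ → 0 < t := by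
      intro t ht hne
      refine Nat.pos_of_ne_zero fun h0 => hne (funext fun g => ?_)
      rw [h0, Nat.coprime_zero_left, Nat.card_eq_one_iff_unique] at ht
      haveI := ht.1
      exact congrArg φ (Subsingleton.elim _ _)
    have hzero : ∀ g, (φ g - φ (g ^ k)) * starRingEnd ℂ (φ g - φ (g ^ l)) = 0 := by
      intro g
      rcases not_and_or.1 (fun h => hex ⟨g, h⟩) with h | h
      · rw [apply_pow_eq hφZ (pow_dvd_bigPart hp.out hpn) (hpos k hk hkne) hk1 (not_not.1 h), sub_self, zero_mul]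
      · rw [apply_pow_eq hφZ (pow_dvd_bigPart hq.out hqn) (hpos l hl hlne) hl1 (not_not.1 h), sub_self, map_zero,
          mul_zero]
    set φk : G → ℂ := fun g => φ (g ^ k)
    set φl : G → ℂ := fun g => φ (g ^ l)
    have hkI : IsIrrCharacter G φk := BrauerInd.isIrr_pow hk hφ
    have hlI : IsIrrCharacter G φl := BrauerInd.isIrr_pow hl hφ
    have h0 : classInner φ φ - classInner φk φ - classInner φ φl + classInner φk φl = 0 := by
      simp only [classInner_eq, ← mul_sub, ← mul_add, ← Finset.sum_sub_distrib, ← Finset.sum_add_distrib]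
      rw [Finset.sum_eq_zero fun g _ => ?_, mul_zero]
      have := hzero g
      rw [map_sub] at this
      linear_combination this
    rw [classInner_self hφ, classInner_ne hkI hφ hkne, classInner_ne hφ hlI hlne.symm, sub_zero, sub_zero] at h0
    obtain ⟨t, ht⟩ := classInner_character_nat (isCharacter_of_irr hkI) ⟨φl, hlI⟩
    rw [show classInner φk φl = (t : ℂ) from ht] at h0
    have : ((1 + t : ℕ) : ℂ) = ((0 : ℕ) : ℂ) := by push_cast; exact h0
    simp only [Nat.cast_inj] at this
    omega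
  have hφC := isCharacter_of_irr hφ
  haveI := charKer_normal hφC
  have hmem : x * y * x⁻¹ * y⁻¹ ∈ charKer φ hφC := by
    rcases hker with h | h
    · rw [show x * y * x⁻¹ * y⁻¹ = x * (y * x⁻¹ * y⁻¹) by group]
      exact (charKer φ hφC).mul_mem h ((charKer_normal hφC).conj_mem _ ((charKer φ hφC).inv_mem h) y)
    · exact (charKer φ hφC).mul_mem ((charKer_normal hφC).conj_mem _ h x) ((charKer φ hφC).inv_mem h)
  have h2 : φ 1 = ψ i 1 := by rw [apply_one hφC, hφd, apply_one (isCharacter_of_irr (hψ i))]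
  rw [← hφc x y, show φ (x * y * x⁻¹ * y⁻¹) = φ 1 from hmem, h2]

end CfsgLib.Blichfeldt
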